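import Mathlib
import Cfsg.Agent.Lib.Golay.M24
import Cfsg.Agent.Lib.Golay.Orbit
import Cfsg.Agent.Lib.Golay.Count

/-!
Orbits of the stabiliser in `M24` of one configuration (a set of point sets) on another class of
configurations, certified by searches replayed in the kernel.
-/

set_option autoImplicit false

namespace Cfsg.Lib.Golay.Dec

open Cfsg
open scoped Pointwise

/-- A configuration: a set of point sets. -/
abbrev Obj := Finset (Finset GolayPt)

/-- The configuration of a list of masks. -/
def interp (L : List ℕ) : Obj := (L.map toSet).toFinset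

/-- The image of a list of masks. -/
def actL (g : List ℕ) (L : List ℕ) : List ℕ := L.map (imgMask g)

/-- A well-formed list of masks. -/
def WF (L : List ℕ) : Bool := L.all (fun m => decide (m < 2 ^ 24)) && decide L.Nodup

/-- The key of a list of masks. -/
def key (L : List ℕ) : ℕ := (L.map fun m => m ^ 3).sum

/-- The key of a configuration. -/
def keyS (S : Obj) : ℕ := ∑ t ∈ S, setNat t ^ 3

/-- Two lists have the same members. -/
def sameSet (a b : List ℕ) : Bool := a.all (fun x => b.contains x) && b.all (fun x => a.contains x)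

theorem interp_actL {g : List ℕ} (hg : isPermList g = true) (L : List ℕ) :
    interp (actL g L) = permOf g • interp L := by
  induction L with
  | nil => simp [interp, actL]
  | cons m L ih =>
    simp only [interp, actL, List.map_cons, List.toFinset_cons, Finset.smul_finset_insert] at ih ⊢
    rw [ih, toSet_imgMask hg]

theorem interp_sameSet {a b : List ℕ} (h : sameSet a b = true) : interp a = interp b := by
  simp only [sameSet, Bool.and_eq_true, List.all_eq_true, List.contains_iff_mem] at h
  ext t
  simp only [interp, List.mem_toFinset, List.mem_map]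
  exact ⟨fun ⟨x, hx, e⟩ => ⟨x, h.1 x hx, e⟩, fun ⟨x, hx, e⟩ => ⟨x, h.2 x hx, e⟩⟩

theorem toSet_inj_on_wf {L : List ℕ} (h : WF L = true) {a b : ℕ} (ha : a ∈ L) (hb : b ∈ L)
    (e : toSet a = toSet b) : a = b := by
  simp only [WF, Bool.and_eq_true, List.all_eq_true, decide_eq_true_eq] at h
  exact (toSet_eq_iff (h.1 a ha) (h.1 b hb)).1 e

theorem sum_interp {M : Type*} [AddCommMonoid M] {L : List ℕ} (h : WF L = true) (f : Finset GolayPt → M) :
    ∑ t ∈ interp L, f t = (L.map fun m => f (toSet m)).sum := by
  have hn : (L.map toSet).Nodup := by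
    simp only [WF, Bool.and_eq_true, decide_eq_true_eq] at h
    refine (List.nodup_map_iff_inj_on h.2).2 fun a ha b hb e => ?_
    exact toSet_inj_on_wf (L := L) (by simp only [WF, Bool.and_eq_true, decide_eq_true_eq]; exact h) ha hb e
  rw [interp, List.sum_toFinset _ hn, List.map_map]
  rfl

theorem key_eq {L : List ℕ} (h : WF L = true) : key L = keyS (interp L) := by
  rw [keyS, sum_interp h, key]
  refine congrArg List.sum (List.map_congr_left fun m hm => ?_)
  simp only [WF, Bool.and_eq_true, List.all_eq_true, decide_eq_true_eq] at h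
  rw [setNat_toSet (h.1 m hm)]

/-- The position of a key in a table of buckets, each entry coding `key * 8192 + position`. -/
def lookup (T : List (List (List ℕ))) (k : ℕ) : Option ℕ :=
  (((T.getD (k % 16) []).getD (k / 16 % 16) []).find? fun e => e / 8192 == k).map fun e => e % 8192

/-- Each key has its own position as table entry. -/
def tableAux (T : List (List (List ℕ))) : List ℕ → ℕ → Bool
  | [], _ => true
  | k :: ks, i => lookup T k == some i && tableAux T ks (i + 1)

/-- The keys are distinct, witnessed by a table of positions. -/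
def distinctKeys (T : List (List (List ℕ))) (ks : List ℕ) : Bool := tableAux T ks 0

theorem nodup_of_tableAux (T : List (List (List ℕ))) : ∀ (ks : List ℕ) (i : ℕ), tableAux T ks i = true →
    ks.Nodup ∧ ∀ k ∈ ks, ∃ j, i ≤ j ∧ lookup T k = some j := by
  intro ks
  induction ks with
  | nil => intro i _; simp
  | cons k ks ih =>
    intro i h
    simp only [tableAux, Bool.and_eq_true, beq_iff_eq] at h
    obtain ⟨h1, h2⟩ := ih _ h.2
    refine ⟨List.nodup_cons.2 ⟨fun hk => ?_, h1⟩, fun a ha => ?_⟩
    · obtain ⟨j, hj, e⟩ := h2 k hk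
      rw [h.1, Option.some_inj] at e
      omega
    · rcases List.mem_cons.1 ha with rfl | ha
      · exact ⟨i, le_rfl, h.1⟩
      · obtain ⟨j, hj, e⟩ := h2 a ha
        exact ⟨j, by omega, e⟩

theorem nodup_interp {L : List (List ℕ)} (hwf : L.all WF = true) {T : List (List (List ℕ))} (hd : distinctKeys T (L.map key) = true) :
    (L.map interp).Nodup := by
  simp only [List.all_eq_true] at hwf
  refine List.Nodup.of_map keyS ?_
  rw [List.map_map]
  have : L.map (keyS ∘ interp) = L.map key := List.map_congr_left fun x hx => (key_eq (hwf x hx)).symm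
  rw [this]
  exact (nodup_of_tableAux _ _ _ hd).1

/-- Unpack a configuration coded in base `2 ^ 24`. -/
def unpack : ℕ → ℕ → List ℕ
  | 0, _ => []
  | k + 1, n => if n = 0 then [] else n % 16777216 :: unpack k (n / 16777216)

/-- The configuration of a node of a search tree. -/
def nodeState (q : ℕ) : List ℕ := unpack 8 (q / 8)

/-- The generator of a node of a search tree. -/
def nodeGen (q : ℕ) : ℕ := q % 8

/-- A layer of a search tree: the children of the members of the previous layer. -/
def okLayer (gens : List (List ℕ)) : List (List ℕ) → List (List ℕ) → Bool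
  | p :: ps, c :: cs => c.all (fun q => decide (nodeGen q < gens.length) &&
      actL (gens.getD (nodeGen q) []) p == nodeState q) && okLayer gens ps cs
  | _, [] => true
  | [], _ :: _ => false

/-- The states of a layer. -/
def layerStates (l : List (List ℕ)) : List (List ℕ) := l.flatten.map nodeState

/-- Every layer is obtained from the one before it. -/
def okTree (gens : List (List ℕ)) : List (List ℕ) → List (List (List ℕ)) → Bool
  | _, [] => true
  | prev, l :: ls => okLayer gens prev l && okTree gens (layerStates l) ls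

/-- All states of a search tree. -/
def treeStates (d : List ℕ) (cs : List (List (List ℕ))) : List (List ℕ) := d :: cs.flatMap layerStates

theorem okLayer_reach {gens : List (List ℕ)} {R : List ℕ → Prop}
    (hR : ∀ g ∈ gens, ∀ s, R s → R (actL g s)) :
    ∀ prev l, okLayer gens prev l = true → (∀ s ∈ prev, R s) → ∀ s ∈ layerStates l, R s := by
  intro prev
  induction prev with
  | nil =>
    intro l h _ s hs
    cases l with
    | nil => simp [layerStates] at hs
    | cons a b => simp [okLayer] at h
  | cons p ps ih =>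
    intro l h hp s hs
    cases l with
    | nil => simp [layerStates] at hs
    | cons c cs =>
      simp only [okLayer, Bool.and_eq_true, List.all_eq_true, decide_eq_true_eq, beq_iff_eq] at h
      simp only [layerStates, List.flatten_cons, List.map_append, List.mem_append, List.mem_map] at hs
      rcases hs with ⟨q, hq, rfl⟩ | ⟨q, hq, rfl⟩
      · obtain ⟨hlt, he⟩ := h.1 q hq
        rw [← he]
        refine hR _ ?_ _ (hp p List.mem_cons_self)
        rw [List.getD_eq_getElem _ _ hlt]
        exact List.getElem_mem hlt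
      · exact ih cs h.2 (fun t ht => hp t (List.mem_cons_of_mem _ ht)) _ (List.mem_map.2 ⟨q, hq, rfl⟩)

theorem okTree_orbit {gens : List (List ℕ)} (H : Subgroup (Equiv.Perm GolayPt))
    (hperm : ∀ g ∈ gens, isPermList g = true) (hgens : ∀ g ∈ gens, permOf g ∈ H)
    (d : List ℕ) (cs : List (List (List ℕ))) (hok : okTree gens [d] cs = true) :
    ∀ s ∈ treeStates d cs, ∃ σ ∈ H, σ • interp d = interp s := by
  have hR : ∀ g ∈ gens, ∀ s, (∃ σ ∈ H, σ • interp d = interp s) →
      ∃ σ ∈ H, σ • interp d = interp (actL g s) := by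
    rintro g hg s ⟨σ, hσ, e⟩
    exact ⟨permOf g * σ, H.mul_mem (hgens g hg) hσ, by rw [mul_smul, e, interp_actL (hperm g hg)]⟩
  have h0 : ∃ σ ∈ H, σ • interp d = interp d := ⟨1, H.one_mem, one_smul _ _⟩
  suffices ∀ cs prev, okTree gens prev cs = true → (∀ s ∈ prev, ∃ σ ∈ H, σ • interp d = interp s) →
      ∀ s ∈ cs.flatMap layerStates, ∃ σ ∈ H, σ • interp d = interp s by
    intro s hs
    rcases List.mem_cons.1 hs with rfl | hs
    · exact h0
    · exact this cs [d] hok (by simpa using h0) s hs
  intro cs
  induction cs with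
  | nil => intro prev _ _ s hs; simp at hs
  | cons l ls ih =>
    intro prev h hp s hs
    simp only [okTree, Bool.and_eq_true] at h
    have hl := okLayer_reach (R := fun s => ∃ σ ∈ H, σ • interp d = interp s) hR prev l h.1 hp
    rcases List.mem_append.1 (List.flatMap_cons ▸ hs) with hs | hs
    · exact hl s hs
    · exact ih _ h.2 hl s hs

/-- A class of configurations: one orbit of `M24` with known size, witnessed from a base. -/
structure IsCls (Ω : Set Obj) (base : List ℕ) (N : ℕ) : Prop where
  mem : interp base ∈ Ω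
  invar : ∀ σ ∈ M24, ∀ S ∈ Ω, σ • S ∈ Ω
  trans : ∀ S ∈ Ω, ∃ σ ∈ M24, σ • interp base = S
  card : Ω.ncard = N

/-- The generators of `M24`. -/
def stdPerms : List (List ℕ) := [shiftPerm, invPerm, twistPerm]

/-- The search of a whole class. -/
def clsList (base : List ℕ) (cert : List (List (List ℕ))) : List (List ℕ) :=
  treeStates base cert

/-- The check of a class. -/
def checkCls (base : List ℕ) (cert : List (List (List ℕ))) (N : ℕ) (T : List (List (List ℕ))) : Bool :=
  stdPerms.all keepsCode && okTree stdPerms [base] cert && (clsList base cert).all WF &&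
    distinctKeys T ((clsList base cert).map key) && (clsList base cert).length == N

theorem isPermList_of_keepsCode {g : List ℕ} (h : keepsCode g = true) : isPermList g = true := by
  simp only [keepsCode, Bool.and_eq_true] at h
  exact h.1

theorem isCls_of_check {Ω : Set Obj} {base : List ℕ} {cert : List (List (List ℕ))} {N : ℕ}
    (hmem : interp base ∈ Ω) (hinv : ∀ σ ∈ M24, ∀ S ∈ Ω, σ • S ∈ Ω) (hN : Ω.ncard ≤ N)
    {T : List (List (List ℕ))} (hchk : checkCls base cert N T = true) : IsCls Ω base N := by
  simp only [checkCls, Bool.and_eq_true, beq_iff_eq] at hchk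
  obtain ⟨⟨⟨⟨hg, hok⟩, hwf⟩, hd⟩, hlen⟩ := hchk
  have hreach : ∀ s ∈ clsList base cert, ∃ σ ∈ M24, σ • interp base = interp s :=
    okTree_orbit M24 (fun g hg' => isPermList_of_keepsCode (List.all_eq_true.1 hg g hg'))
      (fun g hg' => permOf_mem_M24 (List.all_eq_true.1 hg g hg')) base cert hok
  set F := ((clsList base cert).map interp).toFinset with hF
  have hFc : F.card = N := by
    rw [hF, List.toFinset_card_of_nodup (nodup_interp hwf hd), List.length_map, hlen]
  have hsub : (F : Set Obj) ⊆ Ω := by
    intro S hS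
    simp only [hF, List.coe_toFinset, Set.mem_ofPred_eq, List.mem_map] at hS
    obtain ⟨s, hs, rfl⟩ := hS
    obtain ⟨σ, hσ, e⟩ := hreach s hs
    exact e ▸ hinv σ hσ _ hmem
  have heq : (F : Set Obj) = Ω := Set.eq_of_subset_of_ncard_le hsub (by rw [Set.ncard_coe_finset, hFc]; exact hN)
  refine ⟨hmem, hinv, fun S hS => ?_, by rw [← heq, Set.ncard_coe_finset, hFc]⟩
  rw [← heq] at hS
  simp only [hF, List.coe_toFinset, Set.mem_ofPred_eq, List.mem_map] at hS
  obtain ⟨s, hs, rfl⟩ := hS
  exact hreach s hs

/-- Orbit sizes and invariants of the parts of a decomposition. -/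
def partVals (inv : List ℕ → List ℕ → ℕ) (base : List ℕ) (gens : List (List ℕ))
    (parts : List (List ℕ × List (List (List ℕ)))) : List (ℕ × ℕ) :=
  parts.map fun p => ((treeStates p.1 p.2).length, inv base p.1)

/-- All states of a decomposition. -/
def allStates (gens : List (List ℕ)) (parts : List (List ℕ × List (List (List ℕ)))) : List (List ℕ) :=
  parts.flatMap fun p => treeStates p.1 p.2

/-- The check of a decomposition. -/
def checkDec (base : List ℕ) (baseB : List ℕ) (certB : List (List (List ℕ))) (inv : List ℕ → List ℕ → ℕ)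
    (gens : List (List ℕ)) (parts : List (List ℕ × List (List (List ℕ)))) (N : ℕ) (T : List (List (List ℕ))) (vals : List (ℕ × ℕ)) : Bool :=
  gens.all keepsCode && gens.all (fun g => sameSet (actL g base) base) && stdPerms.all keepsCode &&
    okTree stdPerms [baseB] certB && WF base && parts.all (fun p => okTree gens [p.1] p.2) &&
    parts.all (fun p => (clsList baseB certB).any (sameSet p.1)) &&
    (allStates gens parts).all WF && distinctKeys T ((allStates gens parts).map key) &&
    (allStates gens parts).length == N && decide (partVals inv base gens parts = vals) &&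
    decide ((vals.map Prod.snd).Nodup)

/-- Orbits of the stabilisers of members of `A` on `B`, separated by an invariant. -/
structure IsDecomp (A B : Set Obj) (inv : Obj → Obj → ℕ) (vals : List (ℕ × ℕ)) : Prop where
  covers : ∀ S ∈ A, ∀ T ∈ B, ∃ nv ∈ vals, inv S T = nv.2
  count : ∀ S ∈ A, ∀ nv ∈ vals, {T | T ∈ B ∧ inv S T = nv.2}.ncard = nv.1
  invariant : ∀ σ ∈ M24, ∀ S T : Obj, inv (σ • S) (σ • T) = inv S T
  trans : ∀ S ∈ A, ∀ T ∈ B, ∀ T' ∈ B, inv S T = inv S T' → ∃ σ ∈ M24, σ • S = S ∧ σ • T = T'

theorem isDecomp_of_check {A B : Set Obj} {base baseB : List ℕ} {M N : ℕ} {certB : List (List (List ℕ))}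
    (hA : IsCls A base M) (hB : IsCls B baseB N) (inv : Obj → Obj → ℕ) (invC : List ℕ → List ℕ → ℕ)
    (hinvC : ∀ a b, WF a = true → WF b = true → invC a b = inv (interp a) (interp b))
    (hinv : ∀ σ ∈ M24, ∀ S T : Obj, inv (σ • S) (σ • T) = inv S T)
    (gens : List (List ℕ)) (parts : List (List ℕ × List (List (List ℕ)))) (vals : List (ℕ × ℕ))
    (Tk : List (List (List ℕ))) (hchk : checkDec base baseB certB invC gens parts N Tk vals = true) : IsDecomp A B inv vals := by
  simp only [checkDec, Bool.and_eq_true, beq_iff_eq, decide_eq_true_eq] at hchk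
  obtain ⟨⟨⟨⟨⟨⟨⟨⟨⟨⟨⟨hg, hfix⟩, hstd⟩, hcertB⟩, hwfb⟩, hoks⟩, hrep⟩, hwf⟩, hdist⟩, hlen⟩, hvals⟩, hvnd⟩ := hchk
  have hf : ∀ l, isPermList l = true → ∀ s, interp (actL l s) = permOf l • interp s := fun l hl s => interp_actL hl s
  have hgens : ∀ g ∈ gens, permOf g ∈ M24 ⊓ MulAction.stabilizer (Equiv.Perm GolayPt) (interp base) := by
    intro g hg'
    have hk := List.all_eq_true.1 hg g hg'
    refine ⟨permOf_mem_M24 hk, ?_⟩
    show permOf g • interp base = interp base
    rw [← hf g (isPermList_of_keepsCode hk) base]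
    exact interp_sameSet (List.all_eq_true.1 hfix g hg')
  have horb : ∀ p ∈ parts, ∀ s ∈ treeStates p.1 p.2,
      ∃ σ ∈ M24 ⊓ MulAction.stabilizer (Equiv.Perm GolayPt) (interp base), σ • interp p.1 = interp s :=
    fun p hp => okTree_orbit _ (fun g hg' => isPermList_of_keepsCode (List.all_eq_true.1 hg g hg')) hgens p.1 p.2
      (List.all_eq_true.1 hoks p hp)
  have hrepB : ∀ p ∈ parts, interp p.1 ∈ B := by
    intro p hp
    obtain ⟨s, hs, he⟩ := List.any_eq_true.1 (List.all_eq_true.1 hrep p hp)
    obtain ⟨σ, hσ, e⟩ := okTree_orbit M24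
      (fun g hg' => isPermList_of_keepsCode (List.all_eq_true.1 hstd g hg'))
      (fun g hg' => permOf_mem_M24 (List.all_eq_true.1 hstd g hg')) baseB certB hcertB s hs
    rw [interp_sameSet he, ← e]
    exact hB.invar σ hσ _ hB.mem
  have hstateB : ∀ p ∈ parts, ∀ s ∈ treeStates p.1 p.2, interp s ∈ B := by
    intro p hp s hs
    obtain ⟨σ, hσ, e⟩ := horb p hp s hs
    exact e ▸ hB.invar σ hσ.1 _ (hrepB p hp)
  have hwfs : ∀ p ∈ parts, ∀ s ∈ treeStates p.1 p.2, WF s = true := fun p hp s hs =>
    List.all_eq_true.1 hwf s (List.mem_flatMap.2 ⟨p, hp, hs⟩)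
  have hself : ∀ p ∈ parts, p.1 ∈ treeStates p.1 p.2 := by
    intro p _
    exact List.mem_cons_self
  have hval : ∀ p ∈ parts, ∀ s ∈ treeStates p.1 p.2,
      inv (interp base) (interp s) = invC base p.1 := by
    intro p hp s hs
    obtain ⟨σ, hσ, e⟩ := horb p hp s hs
    have h2 : σ • interp base = interp base := hσ.2
    rw [← e, hinvC base p.1 hwfb (hwfs p hp _ (hself p hp))]
    conv_lhs => rw [← h2]
    exact hinv σ hσ.1 _ _
  set all := (allStates gens parts).map interp with hall
  have hnd : all.Nodup := nodup_interp hwf hdist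
  have hcover : ∀ T ∈ B, ∃ p ∈ parts, ∃ s ∈ treeStates p.1 p.2, interp s = T := by
    intro T hT
    have hsub : (all.toFinset : Set Obj) ⊆ B := by
      intro S hS
      simp only [hall, List.coe_toFinset, Set.mem_ofPred_eq, List.mem_map, allStates, List.mem_flatMap] at hS
      obtain ⟨s, ⟨p, hp, hs⟩, rfl⟩ := hS
      exact hstateB p hp s hs
    have heq := Set.eq_of_subset_of_ncard_le hsub (by
      rw [Set.ncard_coe_finset, List.toFinset_card_of_nodup hnd, hall, List.length_map, hlen, hB.card])
    rw [← heq] at hT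
    simp only [hall, List.coe_toFinset, Set.mem_ofPred_eq, List.mem_map, allStates, List.mem_flatMap] at hT
    obtain ⟨s, ⟨p, hp, hs⟩, rfl⟩ := hT
    exact ⟨p, hp, s, hs, rfl⟩
  have hmemv : ∀ p ∈ parts, ((treeStates p.1 p.2).length, invC base p.1) ∈ vals := fun p hp =>
    hvals ▸ List.mem_map.2 ⟨p, hp, rfl⟩
  have hsame : ∀ p ∈ parts, ∀ q ∈ parts, invC base p.1 = invC base q.1 → p = q := by
    rw [← hvals, partVals, List.map_map] at hvnd
    exact fun p hp q hq e => List.inj_on_of_nodup_map hvnd hp hq e
  have hbcov : ∀ T ∈ B, ∃ nv ∈ vals, inv (interp base) T = nv.2 := by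
    intro T hT
    obtain ⟨p, hp, s, hs, rfl⟩ := hcover T hT
    exact ⟨_, hmemv p hp, hval p hp s hs⟩
  have hbcount : ∀ nv ∈ vals, {T | T ∈ B ∧ inv (interp base) T = nv.2}.ncard = nv.1 := by
    intro nv hnv
    rw [← hvals] at hnv
    obtain ⟨p, hp, rfl⟩ := List.mem_map.1 hnv
    have e : {T | T ∈ B ∧ inv (interp base) T = invC base p.1} =
        (((treeStates p.1 p.2).map interp).toFinset : Set Obj) := by
      ext T
      simp only [Set.mem_ofPred_eq, List.coe_toFinset, List.mem_map]
      constructor
      · rintro ⟨hT, hv⟩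
        obtain ⟨q, hq, s, hs, rfl⟩ := hcover T hT
        rw [hval q hq s hs] at hv
        obtain rfl := hsame q hq p hp hv
        exact ⟨s, hs, rfl⟩
      · rintro ⟨s, hs, rfl⟩
        exact ⟨hstateB p hp s hs, hval p hp s hs⟩
    show {T | T ∈ B ∧ inv (interp base) T = invC base p.1}.ncard = _
    rw [e, Set.ncard_coe_finset, List.toFinset_card_of_nodup, List.length_map]
    rw [hall, allStates, List.map_flatMap] at hnd
    exact (List.nodup_flatMap.1 hnd).1 p hp
  have hbtrans : ∀ T ∈ B, ∀ T' ∈ B, inv (interp base) T = inv (interp base) T' →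
      ∃ σ ∈ M24, σ • interp base = interp base ∧ σ • T = T' := by
    intro T hT T' hT' hv
    obtain ⟨p, hp, s, hs, rfl⟩ := hcover T hT
    obtain ⟨q, hq, t, ht, rfl⟩ := hcover T' hT'
    rw [hval p hp s hs, hval q hq t ht] at hv
    obtain rfl := hsame p hp q hq hv
    obtain ⟨σ, hσ, e⟩ := horb p hp s hs
    obtain ⟨τ, hτ, e'⟩ := horb p hp t ht
    have hm := Subgroup.mul_mem _ hτ (Subgroup.inv_mem _ hσ)
    exact ⟨τ * σ⁻¹, hm.1, hm.2, by rw [← e, mul_smul, inv_smul_smul, e']⟩
  refine ⟨?_, ?_, hinv, ?_⟩
  · intro S hS T hT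
    obtain ⟨σ, hσ, rfl⟩ := hA.trans S hS
    obtain ⟨nv, hnv, e⟩ := hbcov (σ⁻¹ • T) (hB.invar _ (M24.inv_mem hσ) T hT)
    refine ⟨nv, hnv, ?_⟩
    rw [← e]
    conv_lhs => rw [← smul_inv_smul σ T]
    exact hinv σ hσ _ _
  · intro S hS nv hnv
    obtain ⟨σ, hσ, rfl⟩ := hA.trans S hS
    have e : {T | T ∈ B ∧ inv (σ • interp base) T = nv.2} =
        (fun T : Obj => σ • T) '' {T | T ∈ B ∧ inv (interp base) T = nv.2} := by
      ext T
      simp only [Set.mem_image, Set.mem_ofPred_eq]
      constructor
      · rintro ⟨hT, hv⟩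
        refine ⟨σ⁻¹ • T, ⟨hB.invar _ (M24.inv_mem hσ) T hT, ?_⟩, smul_inv_smul σ T⟩
        rw [← hinv σ hσ, smul_inv_smul]; exact hv
      · rintro ⟨U, ⟨hU, hv⟩, rfl⟩
        exact ⟨hB.invar σ hσ U hU, by rw [hinv σ hσ]; exact hv⟩
    rw [e, Set.ncard_image_of_injective _ (MulAction.injective σ)]
    exact hbcount nv hnv
  · intro S hS T hT T' hT' hv
    obtain ⟨σ, hσ, rfl⟩ := hA.trans S hS
    rw [← smul_inv_smul σ T, ← smul_inv_smul σ T', hinv σ hσ, hinv σ hσ] at hv
    obtain ⟨τ, hτ, hb, ht⟩ := hbtrans _ (hB.invar _ (M24.inv_mem hσ) T hT) _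
      (hB.invar _ (M24.inv_mem hσ) T' hT') hv
    exact ⟨σ * τ * σ⁻¹, M24.mul_mem (M24.mul_mem hσ hτ) (M24.inv_mem hσ),
      by rw [mul_smul, mul_smul, inv_smul_smul, hb],
      by rw [mul_smul, mul_smul, ht, smul_inv_smul]⟩

/-- Intersection profile of two configurations. -/
def profS (S T : Obj) : ℕ := ∑ s ∈ S, ∑ t ∈ T, 16 ^ (s ∩ t).card

/-- Intersection profile of two lists of masks. -/
def profC (a b : List ℕ) : ℕ := (a.map fun m => (b.map fun n => 16 ^ pop (m &&& n)).sum).sum

theorem profC_eq (a b : List ℕ) (ha : WF a = true) (hb : WF b = true) :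
    profC a b = profS (interp a) (interp b) := by
  simp only [profS, profC, sum_interp ha, sum_interp hb, card_inter_toSet]

theorem profS_smul (σ : Equiv.Perm GolayPt) (S T : Obj) : profS (σ • S) (σ • T) = profS S T := by
  simp only [profS, Finset.smul_finset_def (s := S), Finset.smul_finset_def (s := T)]
  rw [Finset.sum_image (fun a _ b _ e => MulAction.injective σ e)]
  refine Finset.sum_congr rfl fun s _ => ?_
  rw [Finset.sum_image (fun a _ b _ e => MulAction.injective σ e)]
  refine Finset.sum_congr rfl fun t _ => ?_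
  rw [← Finset.smul_finset_inter, Finset.card_smul_finset]

end Cfsg.Lib.Golay.Dec
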