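import Mathlib
import Cfsg.Prelude.Def_SporadicCombinatorics
import Cfsg.Agent.Lib.Golay.Dec.Basic
import Cfsg.Agent.Lib.Golay.Dodecads
import Cfsg.Agent.Lib.Golay.Cosets
import Cfsg.Agent.S1557

/-! The classes of configurations and bounds on their sizes. -/

set_option autoImplicit false

namespace Cfsg.Lib.Golay.Dec

open Cfsg
open scoped Pointwise

theorem octad_smul {σ : Equiv.Perm GolayPt} (hσ : σ ∈ M24) {o : Finset GolayPt} (ho : o ∈ octads) :
    σ • o ∈ octads := smul_mem_words hσ ho

theorem dodecad_smul {σ : Equiv.Perm GolayPt} (hσ : σ ∈ M24) {o : Finset GolayPt} (ho : o ∈ dodecads) :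
    σ • o ∈ dodecads := smul_mem_words hσ ho

theorem smul_sets_eq (σ : Equiv.Perm GolayPt) (S : Obj) : σ • S = S.image fun t => σ • t :=
  Finset.smul_finset_def

theorem card_pt : Fintype.card GolayPt = 24 := by simp [GolayPt]

theorem dodecad_compl {d : Finset GolayPt} (hd : d ∈ dodecads) : dᶜ ∈ dodecads := by
  have hu : (Finset.univ : Finset GolayPt) ∈ supports (golayCode : Set (GolayPt → ZMod 2)) := by
    refine ⟨1, Submodule.subset_span (Or.inr rfl), ?_⟩
    ext p; simp [support₂]
  refine ⟨?_, ?_⟩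
  · have := symmDiff_mem_supports hu hd.1
    rwa [← Finset.top_eq_univ, top_symmDiff, hnot_eq_compl] at this
  · rw [Finset.card_compl, card_dodecad hd, card_pt]

theorem smul_compl' (σ : Equiv.Perm GolayPt) (d : Finset GolayPt) : σ • dᶜ = (σ • d)ᶜ := by
  ext x
  simp only [Finset.mem_compl, ← Finset.inv_smul_mem_iff]

/-- Point sets of size `k`, as one-element configurations. -/
def ptCls (k : ℕ) : Set Obj := {S | ∃ s : Finset GolayPt, s.card = k ∧ S = {s}}

/-- Octads, as one-element configurations. -/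
def octCls : Set Obj := {S | ∃ o ∈ octads, S = {o}}

/-- Dodecads, as one-element configurations. -/
def dodCls : Set Obj := {S | ∃ d ∈ dodecads, S = {d}}

/-- Complementary pairs of dodecads. -/
def dodPairCls : Set Obj := {S | ∃ d ∈ dodecads, S = {d, dᶜ}}

theorem ptCls_invar {k : ℕ} : ∀ σ ∈ M24, ∀ S ∈ ptCls k, σ • S ∈ ptCls k := by
  rintro σ _ S ⟨s, hs, rfl⟩
  exact ⟨σ • s, by rw [Finset.card_smul_finset, hs], Finset.smul_finset_singleton _⟩

theorem octCls_invar : ∀ σ ∈ M24, ∀ S ∈ octCls, σ • S ∈ octCls := by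
  rintro σ hσ S ⟨s, hs, rfl⟩
  exact ⟨σ • s, octad_smul hσ hs, Finset.smul_finset_singleton _⟩

theorem dodCls_invar : ∀ σ ∈ M24, ∀ S ∈ dodCls, σ • S ∈ dodCls := by
  rintro σ hσ S ⟨s, hs, rfl⟩
  exact ⟨σ • s, dodecad_smul hσ hs, Finset.smul_finset_singleton _⟩

theorem dodPairCls_invar : ∀ σ ∈ M24, ∀ S ∈ dodPairCls, σ • S ∈ dodPairCls := by
  rintro σ hσ S ⟨s, hs, rfl⟩
  refine ⟨σ • s, dodecad_smul hσ hs, ?_⟩
  rw [Finset.smul_finset_insert, Finset.smul_finset_singleton, smul_compl']

theorem trios_invar : ∀ σ ∈ M24, ∀ S ∈ trios, σ • S ∈ trios := by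
  rintro σ hσ S ⟨h3, ho, hd⟩
  refine ⟨by rw [Finset.card_smul_finset, h3], ?_, ?_⟩
  · intro o hmem
    rw [smul_sets_eq, Finset.mem_image] at hmem
    obtain ⟨a, ha, rfl⟩ := hmem
    exact octad_smul hσ (ho a ha)
  · intro o hmem o' hmem' hne
    rw [smul_sets_eq, Finset.mem_image] at hmem hmem'
    obtain ⟨a, ha, rfl⟩ := hmem
    obtain ⟨b, hb, rfl⟩ := hmem'
    rw [Finset.disjoint_iff_inter_eq_empty, ← Finset.smul_finset_inter,
      Finset.disjoint_iff_inter_eq_empty.1 (hd a ha b hb fun e => hne (by rw [e])), Finset.smul_finset_empty]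

theorem sextets_invar : ∀ σ ∈ M24, ∀ S ∈ sextets, σ • S ∈ sextets := by
  rintro σ hσ S ⟨h6, h4, hu⟩
  refine ⟨by rw [Finset.card_smul_finset, h6], ?_, ?_⟩
  · intro o hmem
    rw [smul_sets_eq, Finset.mem_image] at hmem
    obtain ⟨a, ha, rfl⟩ := hmem
    rw [Finset.card_smul_finset, h4 a ha]
  · intro o hmem o' hmem' hne
    rw [smul_sets_eq, Finset.mem_image] at hmem hmem'
    obtain ⟨a, ha, rfl⟩ := hmem
    obtain ⟨b, hb, rfl⟩ := hmem'
    rw [← Finset.smul_finset_union]
    exact octad_smul hσ (hu a ha b hb fun e => hne (by rw [e]))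

theorem ptCls_ncard_le (k : ℕ) : (ptCls k).ncard ≤ Nat.choose 24 k := by
  have : ptCls k = (fun s => ({s} : Obj)) '' ((Finset.univ : Finset GolayPt).powersetCard k : Set (Finset GolayPt)) := by
    ext S; simp [ptCls, eq_comm]
  rw [this]
  refine (Set.ncard_image_le (Finset.finite_toSet _)).trans ?_
  rw [Set.ncard_coe_finset, Finset.card_powersetCard, Finset.card_univ, card_pt]

theorem octCls_ncard_le : octCls.ncard ≤ 759 := by
  have : octCls = (fun s => ({s} : Obj)) '' (octadFinset : Set (Finset GolayPt)) := by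
    ext S; simp [octCls, mem_octadFinset, eq_comm]
  rw [this]
  refine (Set.ncard_image_le (Finset.finite_toSet _)).trans ?_
  rw [Set.ncard_coe_finset, octadFinset_card]

theorem dodCls_ncard_le : dodCls.ncard ≤ 2576 := by
  have : dodCls = (fun s => ({s} : Obj)) '' dodecads := by
    ext S; simp [dodCls, eq_comm]
  rw [this]
  exact (Set.ncard_image_le (Set.toFinite _)).trans ncard_dodecads.le

set_option maxRecDepth 100000 in
theorem dodMasks_top : dodMasks.countP (fun n => n.testBit 23) = 1288 := by decide +kernel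

theorem dodPairCls_ncard_le : dodPairCls.ncard ≤ 1288 := by
  have h : dodPairCls ⊆ (fun d => ({d, dᶜ} : Obj)) '' {d | d ∈ dodecads ∧ (none : GolayPt) ∈ d} := by
    rintro S ⟨d, hd, rfl⟩
    by_cases hn : (none : GolayPt) ∈ d
    · exact ⟨d, ⟨hd, hn⟩, rfl⟩
    · exact ⟨dᶜ, ⟨dodecad_compl hd, Finset.mem_compl.2 hn⟩, by simp [Finset.pair_comm]⟩
  refine (Set.ncard_le_ncard h (Set.toFinite _)).trans ?_
  refine (Set.ncard_image_le (Set.toFinite _)).trans ?_
  rw [ncard_dodecads_filter (fun d => (none : GolayPt) ∈ d) (fun n => n.testBit 23), dodMasks_top]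
  intro n _
  rw [mem_toSet]
  rfl

theorem trios_ncard : trios.ncard = 3795 := Cfsg.Agent.S1557.result.2

theorem sextets_ncard_le : sextets.ncard ≤ 1771 := by
  classical
  set T := (Finset.univ : Finset GolayPt).powersetCard 4 |>.filter (fun t => (none : GolayPt) ∈ t) with hT
  have hcardT : T.card = 1771 := by
    have h := Cfsg.Lib.Steiner.card_supersets (Finset.univ : Finset GolayPt) {none} (Finset.subset_univ _)
      (n := 4) (by simp)
    simp only [Finset.singleton_subset_iff, Finset.card_univ, card_pt, Finset.card_singleton] at h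
    rw [hT, h]; decide
  have hsub : sextets ⊆ sextetOf '' (T : Set (Finset GolayPt)) := by
    intro S hS
    obtain ⟨h6, h4, hu⟩ := hS
    have hd : ∀ t ∈ S, ∀ u ∈ S, t ≠ u → Disjoint t u := by
      intro t ht u hu' hne
      have h8 := card_octad (hu t ht u hu' hne)
      rw [Finset.card_union, h4 t ht, h4 u hu'] at h8
      rw [Finset.disjoint_iff_inter_eq_empty, ← Finset.card_eq_zero]
      omega
    have hcov : S.biUnion id = Finset.univ := by
      refine Finset.eq_univ_of_card _ ?_
      have hb := Finset.card_biUnion (s := S) (t := id) (fun a ha b hb hab => hd a ha b hb hab)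
      simp only [id] at hb
      rw [hb,
        Finset.sum_congr rfl (fun t (ht : t ∈ S) => h4 t ht), Finset.sum_const, h6, card_pt]
      rfl
    obtain ⟨t, ht, hn⟩ := Finset.mem_biUnion.1 (hcov ▸ Finset.mem_univ (none : GolayPt))
    refine ⟨t, ?_, ?_⟩
    · simp only [hT, Finset.coe_filter, Finset.mem_powersetCard, Set.mem_ofPred_eq]
      exact ⟨⟨Finset.subset_univ _, h4 t ht⟩, hn⟩
    · refine (Finset.eq_of_subset_of_card_le (fun u hu' => ?_) ?_).symm
      · rw [mem_sextetOf (h4 t ht)]
        by_cases e : u = t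
        · exact Or.inl e
        · exact Or.inr ⟨hd t ht u hu' (Ne.symm e), hu t ht u hu' (Ne.symm e)⟩
      · rw [card_sextetOf (h4 t ht), h6]
  refine (Set.ncard_le_ncard hsub (Set.toFinite _)).trans ?_
  refine (Set.ncard_image_le (Finset.finite_toSet _)).trans ?_
  rw [Set.ncard_coe_finset, hcardT]

theorem trio_of_toSets {L : List ℕ} (hw : WF L = true) (hl : L.length = 3)
    (hc : L.all (fun a => inCode a && pop a == 8 && L.all (fun b => a == b || a &&& b == 0)) = true) :
    interp L ∈ trios := by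
  simp only [List.all_eq_true, Bool.and_eq_true, Bool.or_eq_true, beq_iff_eq] at hc
  refine ⟨?_, ?_, ?_⟩
  · have hn : (L.map toSet).Nodup := by
      simp only [WF, Bool.and_eq_true, decide_eq_true_eq] at hw
      exact (List.nodup_map_iff_inj_on hw.2).2 fun a ha b hb e =>
        toSet_inj_on_wf (L := L) (by simp only [WF, Bool.and_eq_true, decide_eq_true_eq]; exact hw) ha hb e
    rw [interp, List.toFinset_card_of_nodup hn, List.length_map, hl]
  · intro o ho
    simp only [interp, List.mem_toFinset, List.mem_map] at ho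
    obtain ⟨a, ha, rfl⟩ := ho
    exact ⟨⟨toWord a, toWord_mem_golayCode (hc a ha).1.1, support_toWord a⟩, by rw [card_toSet, (hc a ha).1.2]⟩
  · intro o ho o' ho' hne
    simp only [interp, List.mem_toFinset, List.mem_map] at ho ho'
    obtain ⟨a, ha, rfl⟩ := ho
    obtain ⟨b, hb, rfl⟩ := ho'
    rcases (hc a ha).2 b hb with rfl | e
    · exact absurd rfl hne
    · rw [Finset.disjoint_iff_inter_eq_empty, ← toSet_and, e]
      ext p; simp [mem_toSet]

theorem sextet_of_toSets {L : List ℕ} (hw : WF L = true) (hl : L.length = 6)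
    (hc : L.all (fun a => pop a == 4 && L.all (fun b => a == b || (inCode (a ||| b) && pop (a ||| b) == 8))) = true) :
    interp L ∈ sextets := by
  simp only [List.all_eq_true, Bool.and_eq_true, Bool.or_eq_true, beq_iff_eq] at hc
  refine ⟨?_, ?_, ?_⟩
  · have hn : (L.map toSet).Nodup := by
      simp only [WF, Bool.and_eq_true, decide_eq_true_eq] at hw
      exact (List.nodup_map_iff_inj_on hw.2).2 fun a ha b hb e =>
        toSet_inj_on_wf (L := L) (by simp only [WF, Bool.and_eq_true, decide_eq_true_eq]; exact hw) ha hb e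
    rw [interp, List.toFinset_card_of_nodup hn, List.length_map, hl]
  · intro o ho
    simp only [interp, List.mem_toFinset, List.mem_map] at ho
    obtain ⟨a, ha, rfl⟩ := ho
    rw [card_toSet, (hc a ha).1]
  · intro o ho o' ho' hne
    simp only [interp, List.mem_toFinset, List.mem_map] at ho ho'
    obtain ⟨a, ha, rfl⟩ := ho
    obtain ⟨b, hb, rfl⟩ := ho'
    rcases (hc a ha).2 b hb with rfl | e
    · exact absurd rfl hne
    · have hu : toSet a ∪ toSet b = toSet (a ||| b) := by
        ext p; simp [mem_toSet, Nat.testBit_or]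
      rw [hu]
      exact ⟨⟨toWord _, toWord_mem_golayCode e.1, support_toWord _⟩, by rw [card_toSet, e.2]⟩

end Cfsg.Lib.Golay.Dec
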