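import Mathlib
import Cfsg.Agent.Lib.Golay.Dec.Basic
import Cfsg.Agent.Lib.Golay.Dec.ClsTrio
import Cfsg.Agent.Lib.Golay.Dec.ClsSextet

/-! Counting the members of a class with a decidable property along its enumeration. -/

set_option autoImplicit false
set_option maxRecDepth 100000

namespace Cfsg.Lib.Golay.Dec

open Cfsg
open scoped Pointwise

theorem lt_of_wf {L : List ℕ} (h : WF L = true) {m : ℕ} (hm : m ∈ L) : m < 2 ^ 24 := by
  simp only [WF, Bool.and_eq_true, List.all_eq_true, decide_eq_true_eq] at h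
  exact h.1 m hm

theorem sameSet_of_interp {a b : List ℕ} (ha : ∀ m ∈ a, m < 2 ^ 24) (hb : ∀ m ∈ b, m < 2 ^ 24)
    (h : interp a = interp b) : sameSet a b = true := by
  simp only [sameSet, Bool.and_eq_true, List.all_eq_true, List.contains_iff_mem]
  constructor
  · intro x hx
    have hm : toSet x ∈ interp b := h ▸ List.mem_toFinset.2 (List.mem_map.2 ⟨x, hx, rfl⟩)
    obtain ⟨y, hy, e⟩ := List.mem_map.1 (List.mem_toFinset.1 hm)
    exact (toSet_eq_iff (hb y hy) (ha x hx)).1 e ▸ hy
  · intro x hx
    have hm : toSet x ∈ interp a := h.symm ▸ List.mem_toFinset.2 (List.mem_map.2 ⟨x, hx, rfl⟩)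
    obtain ⟨y, hy, e⟩ := List.mem_map.1 (List.mem_toFinset.1 hm)
    exact (toSet_eq_iff (ha y hy) (hb x hx)).1 e ▸ hy

/-- The number of members fixed by a permutation. -/
def fixCount (base : List ℕ) (cert : List (List (List ℕ))) (r : List ℕ) : ℕ :=
  (clsList base cert).countP fun L => sameSet (actL r L) L

theorem ncard_fixed {Ω : Set Obj} {base : List ℕ} {cert : List (List (List ℕ))} {N : ℕ}
    {T : List (List (List ℕ))} (hcls : IsCls Ω base N) (hchk : checkCls base cert N T = true) {r : List ℕ}
    (hr : isPermList r = true) {k : ℕ} (hk : fixCount base cert r = k) :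
    {S | S ∈ Ω ∧ permOf r • S = S}.ncard = k := by
  simp only [checkCls, Bool.and_eq_true, beq_iff_eq] at hchk
  obtain ⟨⟨⟨⟨hg, hok⟩, hwf⟩, hd⟩, hlen⟩ := hchk
  have hreach := okTree_orbit M24 (fun g hg' => isPermList_of_keepsCode (List.all_eq_true.1 hg g hg'))
    (fun g hg' => permOf_mem_M24 (List.all_eq_true.1 hg g hg')) base cert hok
  have hnd := nodup_interp hwf hd
  set F := ((clsList base cert).map interp).toFinset with hF
  have hsub : (F : Set Obj) ⊆ Ω := by
    intro S hS
    simp only [hF, List.coe_toFinset, Set.mem_ofPred_eq, List.mem_map] at hS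
    obtain ⟨s, hs, rfl⟩ := hS
    obtain ⟨σ, hσ, e⟩ := hreach s hs
    exact e ▸ hcls.invar σ hσ _ hcls.mem
  have heq : (F : Set Obj) = Ω := Set.eq_of_subset_of_ncard_le hsub
    (by rw [Set.ncard_coe_finset, hF, List.toFinset_card_of_nodup hnd, List.length_map, hlen, hcls.card])
  have hfilter : {S | S ∈ Ω ∧ permOf r • S = S} =
      ((((clsList base cert).filter fun L => sameSet (actL r L) L).map interp).toFinset : Set Obj) := by
    ext S
    rw [← heq]
    simp only [hF, List.coe_toFinset, Set.mem_ofPred_eq, List.mem_map, List.mem_filter]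
    constructor
    · rintro ⟨⟨L, hL, rfl⟩, hfix⟩
      refine ⟨L, ⟨hL, sameSet_of_interp ?_ (fun m hm => lt_of_wf (List.all_eq_true.1 hwf L hL) hm) ?_⟩, rfl⟩
      · intro m hm
        simp only [actL, List.mem_map] at hm
        obtain ⟨a, -, rfl⟩ := hm
        exact imgMask_lt hr a
      · rw [interp_actL hr, hfix]
    · rintro ⟨L, ⟨hL, hs⟩, rfl⟩
      exact ⟨⟨L, hL, rfl⟩, by rw [← interp_actL hr]; exact interp_sameSet hs⟩
  rw [hfilter, Set.ncard_coe_finset, List.toFinset_card_of_nodup (hnd.sublist (List.filter_sublist.map _)),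
    List.length_map, ← List.countP_eq_length_filter]
  exact hk

theorem trio_check : checkCls TrioCls.base TrioCls.cert 3795 TrioCls.table = true := by decide +kernel

theorem sextet_check : checkCls SextetCls.base SextetCls.cert 1771 SextetCls.table = true := by decide +kernel

end Cfsg.Lib.Golay.Dec
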