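import Mathlib
import Cfsg.Agent.Lib.Golay.Dec.Basic
import Cfsg.Agent.Lib.Golay.Octads

/-! Further invariants of pairs of configurations. -/

set_option autoImplicit false

namespace Cfsg.Lib.Golay.Dec

open Cfsg
open scoped Pointwise

/-- The union of a list of masks. -/
def unionC (L : List ℕ) : ℕ := L.foldr (· ||| ·) 0

theorem sup_interp (L : List ℕ) : (interp L).sup id = toSet (unionC L) := by
  induction L with
  | nil => ext p; simp [interp, unionC, mem_toSet]
  | cons a L ih =>
    simp only [interp, List.map_cons, List.toFinset_cons, Finset.sup_insert, id] at ih ⊢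
    rw [ih, Finset.sup_eq_union, show unionC (a :: L) = a ||| unionC L from rfl]
    ext p; simp [mem_toSet, Nat.testBit_or]

theorem sup_smul (σ : Equiv.Perm GolayPt) (S : Obj) : (σ • S).sup id = σ • S.sup id := by
  induction S using Finset.induction with
  | empty => simp
  | insert a S _ ih =>
    rw [Finset.smul_finset_insert, Finset.sup_insert, Finset.sup_insert, ih]
    simp only [id, Finset.sup_eq_union, Finset.smul_finset_union]

/-- Intersection of the unions, and whether both lie in one octad. -/
noncomputable def tripS (S T : Obj) : ℕ :=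
  2 * (S.sup id ∩ T.sup id).card + if ∃ o ∈ octadFinset, S.sup id ∪ T.sup id ⊆ o then 1 else 0

/-- The computed form of `tripS`. -/
def tripC (a b : List ℕ) : ℕ :=
  2 * pop (unionC a &&& unionC b) +
    if octMasks.any (fun o => ((unionC a ||| unionC b) &&& o) == (unionC a ||| unionC b)) then 1 else 0

theorem unionC_lt : ∀ L : List ℕ, WF L = true → unionC L < 2 ^ 24 := by
  intro L h
  simp only [WF, Bool.and_eq_true, List.all_eq_true, decide_eq_true_eq] at h
  obtain ⟨h, -⟩ := h
  induction L with
  | nil => simp [unionC]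
  | cons a L ih =>
    exact Nat.or_lt_two_pow (h a List.mem_cons_self) (ih fun x hx => h x (List.mem_cons_of_mem _ hx))

theorem tripC_eq (a b : List ℕ) (ha : WF a = true) (hb : WF b = true) :
    tripC a b = tripS (interp a) (interp b) := by
  simp only [tripC, tripS, sup_interp, card_inter_toSet]
  refine congrArg (2 * pop (unionC a &&& unionC b) + ·) ?_
  have hu : toSet (unionC a) ∪ toSet (unionC b) = toSet (unionC a ||| unionC b) := by
    ext p; simp [mem_toSet, Nat.testBit_or]
  have hlt : unionC a ||| unionC b < 2 ^ 24 := Nat.or_lt_two_pow (unionC_lt a ha) (unionC_lt b hb)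
  refine if_congr ?_ rfl rfl
  rw [hu, List.any_eq_true]
  simp only [octadFinset, Finset.mem_image, List.mem_toFinset, beq_iff_eq]
  constructor
  · rintro ⟨o, ho, e⟩
    exact ⟨toSet o, ⟨o, ho, rfl⟩, (toSet_subset_iff _ o hlt).2 e⟩
  · rintro ⟨_, ⟨o, ho, rfl⟩, e⟩
    exact ⟨o, ho, (toSet_subset_iff _ o hlt).1 e⟩

theorem tripS_smul (σ : Equiv.Perm GolayPt) (hσ : σ ∈ M24) (S T : Obj) : tripS (σ • S) (σ • T) = tripS S T := by
  simp only [tripS, sup_smul, ← Finset.smul_finset_inter, ← Finset.smul_finset_union, Finset.card_smul_finset]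
  refine congrArg (2 * (S.sup id ∩ T.sup id).card + ·) ?_
  refine if_congr ⟨?_, ?_⟩ rfl rfl
  · rintro ⟨o, ho, h⟩
    refine ⟨σ⁻¹ • o, mem_octadFinset.2 (smul_mem_words (M24.inv_mem hσ) (mem_octadFinset.1 ho)), ?_⟩
    rwa [Finset.subset_smul_finset_iff, inv_inv]
  · rintro ⟨o, ho, h⟩
    exact ⟨σ • o, mem_octadFinset.2 (smul_mem_words hσ (mem_octadFinset.1 ho)),
      Finset.smul_finset_subset_smul_finset h⟩

/-- The number of members of `T` meeting the union of `S`. -/
def meetS (S T : Obj) : ℕ := (T.filter fun t => (t ∩ S.sup id).Nonempty).card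

/-- The computed form of `meetS`. -/
def meetC (a b : List ℕ) : ℕ := (b.map fun n => if pop (n &&& unionC a) == 0 then 0 else 1).sum

theorem meetC_eq (a b : List ℕ) (_ha : WF a = true) (hb : WF b = true) :
    meetC a b = meetS (interp a) (interp b) := by
  rw [meetS, Finset.card_filter, sum_interp hb, meetC]
  refine congrArg List.sum (List.map_congr_left fun n _ => ?_)
  rw [sup_interp]
  simp only [← Finset.card_pos, card_inter_toSet, beq_iff_eq]
  by_cases h : pop (n &&& unionC a) = 0
  · simp [h]
  · simp [h, Nat.pos_of_ne_zero h]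

theorem meetS_smul (σ : Equiv.Perm GolayPt) (S T : Obj) : meetS (σ • S) (σ • T) = meetS S T := by
  rw [meetS, meetS, sup_smul, Finset.smul_finset_def (s := T), Finset.filter_image,
    Finset.card_image_of_injective _ (MulAction.injective σ)]
  congr 1
  refine Finset.filter_congr fun t _ => ?_
  rw [← Finset.smul_finset_inter, ← Finset.card_pos, Finset.card_smul_finset, Finset.card_pos]

end Cfsg.Lib.Golay.Dec
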