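import Mathlib
import Cfsg.Agent.Lib.Golay.Dec.Basic

/-! Maximality of stabilisers from a decomposition, and orbits of stabilisers. -/

set_option autoImplicit false

namespace Cfsg.Lib.Golay.Dec

open Cfsg
open scoped Pointwise

/-- An equivariant embedding into configurations. -/
structure IsEmb {α : Type} [MulAction (Equiv.Perm GolayPt) α] (e : α → Obj) : Prop where
  inj : Function.Injective e
  equiv : ∀ (σ : Equiv.Perm GolayPt) (x : α), e (σ • x) = σ • e x

theorem isEmb_id : IsEmb (id : Obj → Obj) := ⟨Function.injective_id, fun _ _ => rfl⟩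

theorem isEmb_single : IsEmb (fun s : Finset GolayPt => ({s} : Obj)) :=
  ⟨fun _ _ h => Finset.singleton_injective h, fun σ x => (Finset.smul_finset_singleton x).symm⟩

variable {α β : Type} [MulAction (Equiv.Perm GolayPt) α] [MulAction (Equiv.Perm GolayPt) β]

theorem mem_stabilizer_emb {e : α → Obj} (he : IsEmb e) {x : α} {g : M24} :
    g ∈ MulAction.stabilizer M24 x ↔ (g : Equiv.Perm GolayPt) • e x = e x := by
  rw [MulAction.mem_stabilizer_iff, ← he.equiv, he.inj.eq_iff]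
  rfl

/-- The members of one value of the invariant form one orbit of the stabiliser. -/
theorem orbit_eq {A B : Set Obj} {inv : Obj → Obj → ℕ} {vals : List (ℕ × ℕ)} (h : IsDecomp A B inv vals)
    (hBinv : ∀ σ ∈ M24, ∀ S ∈ B, σ • S ∈ B) {e : α → Obj} (he : IsEmb e) {f : β → Obj} (hf : IsEmb f)
    (hsurj : ∀ T ∈ B, ∃ y, f y = T) {x : α} (hx : e x ∈ A) {y : β} (hy : f y ∈ B) :
    MulAction.orbit (MulAction.stabilizer M24 x) y =
      {z : β | f z ∈ B ∧ inv (e x) (f z) = inv (e x) (f y)} := by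
  ext z
  constructor
  · rintro ⟨⟨g, hg⟩, rfl⟩
    have hs := (mem_stabilizer_emb he).1 hg
    refine ⟨?_, ?_⟩
    · show f ((g : Equiv.Perm GolayPt) • y) ∈ B
      rw [hf.equiv]
      exact hBinv _ g.2 _ hy
    · show inv (e x) (f ((g : Equiv.Perm GolayPt) • y)) = _
      rw [hf.equiv]
      conv_lhs => rw [← hs]
      exact h.invariant _ g.2 _ _
  · rintro ⟨hz, hv⟩
    obtain ⟨σ, hσ, hs, ht⟩ := h.trans _ hx _ hy _ hz hv.symm
    refine ⟨⟨⟨σ, hσ⟩, (mem_stabilizer_emb he).2 hs⟩, ?_⟩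
    show σ • y = z
    exact hf.inj (by rw [hf.equiv, ht])

theorem ncard_fibre {A B : Set Obj} {inv : Obj → Obj → ℕ} {vals : List (ℕ × ℕ)} (h : IsDecomp A B inv vals)
    {f : β → Obj} (hf : IsEmb f) (hsurj : ∀ T ∈ B, ∃ y, f y = T) {S : Obj} (hS : S ∈ A) {n v : ℕ}
    (hnv : (n, v) ∈ vals) : {z : β | f z ∈ B ∧ inv S (f z) = v}.ncard = n := by
  have e : {T | T ∈ B ∧ inv S T = v} = f '' {z : β | f z ∈ B ∧ inv S (f z) = v} := by
    ext T
    simp only [Set.mem_image, Set.mem_ofPred_eq]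
    constructor
    · rintro ⟨hT, hv⟩
      obtain ⟨y, rfl⟩ := hsurj T hT
      exact ⟨y, ⟨hT, hv⟩, rfl⟩
    · rintro ⟨z, hz, rfl⟩
      exact hz
  have hc : {T | T ∈ B ∧ inv S T = v}.ncard = n := h.count S hS (n, v) hnv
  rwa [e, Set.ncard_image_of_injective _ hf.inj] at hc

theorem exists_orbit {A B : Set Obj} {inv : Obj → Obj → ℕ} {vals : List (ℕ × ℕ)} (h : IsDecomp A B inv vals)
    (hBinv : ∀ σ ∈ M24, ∀ S ∈ B, σ • S ∈ B) {e : α → Obj} (he : IsEmb e) {f : β → Obj} (hf : IsEmb f)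
    (hsurj : ∀ T ∈ B, ∃ y, f y = T) {x : α} (hx : e x ∈ A) {n v : ℕ} (hnv : (n, v) ∈ vals) (hn : n ≠ 0) :
    ∃ y : β, f y ∈ B ∧ inv (e x) (f y) = v ∧
      MulAction.orbit (MulAction.stabilizer M24 x) y = {z : β | f z ∈ B ∧ inv (e x) (f z) = v} ∧
      (MulAction.orbit (MulAction.stabilizer M24 x) y).ncard = n := by
  have hc : {T | T ∈ B ∧ inv (e x) T = v}.ncard = n := h.count _ hx (n, v) hnv
  obtain ⟨T, hT, hv⟩ := Set.nonempty_of_ncard_ne_zero (hc ▸ hn)
  obtain ⟨y, rfl⟩ := hsurj T hT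
  have ho := orbit_eq h hBinv he hf hsurj hx hT
  rw [hv] at ho
  exact ⟨y, hT, hv, ho, by rw [ho]; exact ncard_fibre h hf hsurj hx hnv⟩

theorem index_stabilizer_eq {e : α → Obj} (he : IsEmb e) {Ω : Set Obj} {base : List ℕ} {N : ℕ}
    (hcls : IsCls Ω base N) {x : α} (hx : e x ∈ Ω) : (MulAction.stabilizer M24 x).index = N := by
  have hK : MulAction.stabilizer M24 x = MulAction.stabilizer M24 (e x) := by
    ext g
    rw [mem_stabilizer_emb he, MulAction.mem_stabilizer_iff]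
    rfl
  have horb : MulAction.orbit M24 (e x) = Ω := by
    ext T
    constructor
    · rintro ⟨g, rfl⟩
      exact hcls.invar _ g.2 _ hx
    · intro hT
      obtain ⟨σ, hσ, h1⟩ := hcls.trans _ hx
      obtain ⟨τ, hτ, h2⟩ := hcls.trans _ hT
      refine ⟨⟨τ * σ⁻¹, M24.mul_mem hτ (M24.inv_mem hσ)⟩, ?_⟩
      show (τ * σ⁻¹) • e x = T
      rw [← h1, mul_smul, inv_smul_smul, h2]
  rw [hK, MulAction.index_stabilizer, horb, hcls.card]

theorem isCoatom_stabilizer {e : α → Obj} (he : IsEmb e) {Ω : Set Obj} {base : List ℕ} {N : ℕ}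
    (hcls : IsCls Ω base N) {inv : Obj → Obj → ℕ} {vals : List (ℕ × ℕ)} (h : IsDecomp Ω Ω inv vals)
    {v₀ : ℕ} (hv₀ : inv (interp base) (interp base) = v₀) (hone : (1, v₀) ∈ vals)
    (hsnd : (vals.map Prod.snd).Nodup) (hN : 1 < N)
    (hJ : ∀ J ∈ vals.toFinset.powerset, (1, v₀) ∈ J → J.sum Prod.fst ∣ N → J = {(1, v₀)} ∨ J = vals.toFinset)
    {x : α} (hx : e x ∈ Ω) : IsCoatom (MulAction.stabilizer M24 x) := by
  classical
  have hidx := index_stabilizer_eq he hcls hx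
  have hself : inv (e x) (e x) = v₀ := by
    obtain ⟨σ, hσ, h1⟩ := hcls.trans _ hx
    rw [← h1, h.invariant σ hσ, hv₀]
  refine ⟨fun ht => ?_, fun H hH => ?_⟩
  · rw [ht, Subgroup.index_top] at hidx; omega
  obtain ⟨hle, hne⟩ := lt_iff_le_and_ne.1 hH
  set B := MulAction.orbit H (e x) with hB
  have hBsub : B ⊆ Ω := by
    rintro T ⟨g, rfl⟩
    exact hcls.invar _ (g : M24).2 _ hx
  have hclosed : ∀ T ∈ B, ∀ T' ∈ Ω, inv (e x) T' = inv (e x) T → T' ∈ B := by
    intro T hT T' hT' hv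
    obtain ⟨σ, hσ, hs, ht⟩ := h.trans _ hx _ (hBsub hT) _ hT' hv.symm
    obtain ⟨g, hg⟩ := hT
    refine ⟨⟨⟨σ, hσ⟩, hle ((mem_stabilizer_emb he).2 hs)⟩ * g, ?_⟩
    show ((⟨⟨σ, hσ⟩, _⟩ : H) * g) • e x = T'
    rw [mul_smul]
    show σ • (g • e x) = T'
    rw [show g • e x = T from hg, ht]
  set J := vals.toFinset.filter (fun nv => ∃ T ∈ B, inv (e x) T = nv.2) with hJdef
  have hBeq : B = ⋃ nv ∈ (J : Set (ℕ × ℕ)), {T | T ∈ Ω ∧ inv (e x) T = nv.2} := by
    ext T
    simp only [Set.mem_iUnion, Set.mem_ofPred_eq, Finset.mem_coe, hJdef, Finset.mem_filter, List.mem_toFinset,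
      exists_prop]
    constructor
    · intro hT
      obtain ⟨nv, hnv, e'⟩ := h.covers _ hx _ (hBsub hT)
      exact ⟨nv, ⟨hnv, T, hT, e'⟩, hBsub hT, e'⟩
    · rintro ⟨nv, ⟨-, T', hT', e'⟩, hT, e''⟩
      exact hclosed T' hT' T hT (e''.trans e'.symm)
  have hinj : ∀ a ∈ vals.toFinset, ∀ b ∈ vals.toFinset, a.2 = b.2 → a = b := fun a ha b hb e' =>
    List.inj_on_of_nodup_map hsnd (List.mem_toFinset.1 ha) (List.mem_toFinset.1 hb) e'
  have hcard : B.ncard = J.sum Prod.fst := by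
    rw [hBeq, show (⋃ nv ∈ (J : Set (ℕ × ℕ)), {T | T ∈ Ω ∧ inv (e x) T = nv.2}) =
      ↑(J.biUnion fun nv => (Set.toFinite {T | T ∈ Ω ∧ inv (e x) T = nv.2}).toFinset) from by
        simp only [Finset.coe_biUnion, Set.Finite.coe_toFinset],
      Set.ncard_coe_finset, Finset.card_biUnion]
    · refine Finset.sum_congr rfl fun nv hnv => ?_
      rw [← Set.ncard_eq_toFinset_card]
      exact h.count _ hx nv (List.mem_toFinset.1 (Finset.mem_filter.1 hnv).1)
    · intro a ha b hb hab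
      refine Finset.disjoint_left.2 fun T hTa hTb => hab ?_
      simp only [Set.Finite.mem_toFinset, Set.mem_ofPred_eq] at hTa hTb
      exact hinj a (Finset.mem_filter.1 ha).1 b (Finset.mem_filter.1 hb).1 (hTa.2.symm.trans hTb.2)
  have hrel : (MulAction.stabilizer M24 x).relIndex H = B.ncard := by
    rw [hB, ← MulAction.index_stabilizer, Subgroup.relIndex]
    congr 1
    ext g
    simp only [Subgroup.mem_subgroupOf, mem_stabilizer_emb he, MulAction.mem_stabilizer_iff]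
    rfl
  have hmul := Subgroup.relIndex_mul_index hle
  rw [hrel, hidx] at hmul
  have hmem : (1, v₀) ∈ J := Finset.mem_filter.2 ⟨List.mem_toFinset.2 hone, e x, MulAction.mem_orbit_self _, hself⟩
  rcases hJ J (Finset.mem_powerset.2 (Finset.filter_subset _ _)) hmem (hcard ▸ Dvd.intro _ hmul) with hJ1 | hJ1
  · exfalso
    rw [hJ1, Finset.sum_singleton] at hcard
    obtain ⟨T, hT⟩ := Set.ncard_eq_one.1 hcard
    refine hne (le_antisymm hle fun g hg => ?_)
    rw [mem_stabilizer_emb he]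
    have h1 : e x ∈ B := MulAction.mem_orbit_self _
    have h2 : (⟨g, hg⟩ : H) • e x ∈ B := MulAction.mem_orbit _ _
    rw [hT, Set.mem_singleton_iff] at h1 h2
    exact h2.trans h1.symm
  · have hBall : B = Ω := by
      refine Set.Subset.antisymm hBsub fun T hT => ?_
      obtain ⟨nv, hnv, e'⟩ := h.covers _ hx T hT
      rw [hBeq]
      simp only [Set.mem_iUnion, Set.mem_ofPred_eq, Finset.mem_coe, exists_prop, hJ1, List.mem_toFinset]
      exact ⟨nv, hnv, hT, e'⟩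
    rw [hBall, hcls.card] at hmul
    have : H.index = 1 := Nat.eq_of_mul_eq_mul_left (by omega : 0 < N) (hmul.trans (mul_one N).symm)
    exact Subgroup.index_eq_one.1 this

end Cfsg.Lib.Golay.Dec
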