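import Mathlib
import Cfsg.Agent.Lib.Golay.Dec.Maximal
import Cfsg.Agent.Lib.Golay.Dec.Classes

/-! Conveniences for reading off the orbit statements. -/

set_option autoImplicit false

namespace Cfsg.Lib.Golay.Dec

open Cfsg
open scoped Pointwise

theorem single_mem_octCls {o : Finset GolayPt} : ({o} : Obj) ∈ octCls ↔ o ∈ octads :=
  ⟨fun ⟨a, ha, e⟩ => by rwa [Finset.singleton_inj.1 e], fun h => ⟨o, h, rfl⟩⟩

theorem single_mem_dodCls {o : Finset GolayPt} : ({o} : Obj) ∈ dodCls ↔ o ∈ dodecads :=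
  ⟨fun ⟨a, ha, e⟩ => by rwa [Finset.singleton_inj.1 e], fun h => ⟨o, h, rfl⟩⟩

theorem single_mem_ptCls {k : ℕ} {o : Finset GolayPt} : ({o} : Obj) ∈ ptCls k ↔ o.card = k :=
  ⟨fun ⟨a, ha, e⟩ => by rwa [Finset.singleton_inj.1 e], fun h => ⟨o, h, rfl⟩⟩

theorem octCls_surj : ∀ T ∈ octCls, ∃ y : Finset GolayPt, ({y} : Obj) = T :=
  fun _ ⟨y, _, e⟩ => ⟨y, e.symm⟩

theorem dodCls_surj : ∀ T ∈ dodCls, ∃ y : Finset GolayPt, ({y} : Obj) = T :=
  fun _ ⟨y, _, e⟩ => ⟨y, e.symm⟩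

theorem ptCls_surj {k : ℕ} : ∀ T ∈ ptCls k, ∃ y : Finset GolayPt, ({y} : Obj) = T :=
  fun _ ⟨y, _, e⟩ => ⟨y, e.symm⟩

theorem obj_surj {Ω : Set Obj} : ∀ T ∈ Ω, ∃ y : Obj, id y = T := fun T _ => ⟨T, rfl⟩

variable {α β : Type} [MulAction (Equiv.Perm GolayPt) α] [MulAction (Equiv.Perm GolayPt) β]
variable {A B : Set Obj} {inv : Obj → Obj → ℕ} {f : β → Obj} {e : α → Obj} {x : α}

/-- The set of a class is the union of the fibres. -/
theorem eq_three {a b c : ℕ × ℕ} (h : IsDecomp A B inv [a, b, c]) (hx : e x ∈ A) {S : Set β}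
    (hS : ∀ z, z ∈ S ↔ f z ∈ B) {O1 O2 O3 : Set β}
    (h1 : O1 = {z | f z ∈ B ∧ inv (e x) (f z) = a.2}) (h2 : O2 = {z | f z ∈ B ∧ inv (e x) (f z) = b.2})
    (h3 : O3 = {z | f z ∈ B ∧ inv (e x) (f z) = c.2}) : S = O1 ∪ O2 ∪ O3 := by
  subst h1 h2 h3
  ext z
  simp only [hS, Set.mem_union, Set.mem_ofPred_eq]
  constructor
  · intro hz
    obtain ⟨nv, hnv, e'⟩ := h.covers _ hx _ hz
    simp only [List.mem_cons, List.not_mem_nil, or_false] at hnv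
    rcases hnv with rfl | rfl | rfl <;> simp [hz, e']
  · rintro ((⟨h, -⟩ | ⟨h, -⟩) | ⟨h, -⟩) <;> exact h

/-- The set of a class is the union of the fibres. -/
theorem eq_four {a b c d : ℕ × ℕ} (h : IsDecomp A B inv [a, b, c, d]) (hx : e x ∈ A) {S : Set β}
    (hS : ∀ z, z ∈ S ↔ f z ∈ B) {O1 O2 O3 O4 : Set β}
    (h1 : O1 = {z | f z ∈ B ∧ inv (e x) (f z) = a.2}) (h2 : O2 = {z | f z ∈ B ∧ inv (e x) (f z) = b.2})
    (h3 : O3 = {z | f z ∈ B ∧ inv (e x) (f z) = c.2}) (h4 : O4 = {z | f z ∈ B ∧ inv (e x) (f z) = d.2}) :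
    S = O1 ∪ O2 ∪ O3 ∪ O4 := by
  subst h1 h2 h3 h4
  ext z
  simp only [hS, Set.mem_union, Set.mem_ofPred_eq]
  constructor
  · intro hz
    obtain ⟨nv, hnv, e'⟩ := h.covers _ hx _ hz
    simp only [List.mem_cons, List.not_mem_nil, or_false] at hnv
    rcases hnv with rfl | rfl | rfl | rfl <;> simp [hz, e']
  · rintro (((⟨h, -⟩ | ⟨h, -⟩) | ⟨h, -⟩) | ⟨h, -⟩) <;> exact h

/-- The fibre of the invariant at the configuration itself is that configuration. -/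
theorem fibre_self {Ω : Set Obj} {base : List ℕ} {N : ℕ} {vals : List (ℕ × ℕ)} (hcls : IsCls Ω base N)
    (h : IsDecomp Ω Ω inv vals) {v₀ : ℕ} (hv₀ : inv (interp base) (interp base) = v₀)
    (hone : (1, v₀) ∈ vals) {S : Obj} (hS : S ∈ Ω) : {T | T ∈ Ω ∧ inv S T = v₀} = {S} := by
  have hself : inv S S = v₀ := by
    obtain ⟨σ, hσ, h1⟩ := hcls.trans _ hS
    rw [← h1, h.invariant σ hσ, hv₀]
  obtain ⟨T, hT⟩ := Set.ncard_eq_one.1 (show {T | T ∈ Ω ∧ inv S T = v₀}.ncard = 1 from h.count _ hS (1, v₀) hone)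
  have hm : S ∈ {T | T ∈ Ω ∧ inv S T = v₀} := ⟨hS, hself⟩
  rw [hT, Set.mem_singleton_iff] at hm
  rw [hT, hm]

theorem profS_single (a b : Finset GolayPt) : profS {a} {b} = 16 ^ (a ∩ b).card := by simp [profS]

end Cfsg.Lib.Golay.Dec
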